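import Cfsg.Agent.Lib.GC.Pre
import Cfsg.Agent.Lib.Loc.WeakClosed
import Cfsg.Agent.Lib.Loc.Kieler
import Cfsg.Agent.Lib.PLocal.BaerSuzuki
import Cfsg.Agent.Lib.PLocal.Replacement

/-!
# The `qrc`-lemma, first part: a normal elementary abelian subgroup outside `O₂(H)` has a cubic `2F`-offender
-/

set_option autoImplicit false

namespace Cfsg.Lib.QRC

open Subgroup Cfsg.Lib.BG Cfsg.Lib.Transfer Cfsg.Lib.Loc Cfsg.Lib.PLocal Cfsg.Lib.GC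
open scoped commutatorElement

variable {G : Type*} [Group G] {A B L Q T V Y Z : Subgroup G} {b d g k y : G}

/-- The elements centralizing `b` modulo `Z`. -/
def st (Z : Subgroup G) (b : G) : Subgroup G where
  carrier := {g | g ∈ 𝐍(Z) ∧ ⁅g, b⁆ ∈ Z}
  one_mem' := ⟨one_mem _, by simp⟩
  mul_mem' := fun {x y} hx hy => ⟨mul_mem hx.1 hy.1, by
    rw [show ⁅x * y, b⁆ = x * ⁅y, b⁆ * x⁻¹ * ⁅x, b⁆ by simp only [commutatorElement_def]; group]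
    exact mul_mem (conj_mem_of_norm hx.1 hy.2) hx.2⟩
  inv_mem' := fun {x} hx => ⟨inv_mem hx.1, by
    rw [show ⁅x⁻¹, b⁆ = x⁻¹ * ⁅x, b⁆⁻¹ * x by simp only [commutatorElement_def]; group]
    exact conj_mem_of_norm' hx.1 (inv_mem hx.2)⟩

theorem mem_st : g ∈ st Z b ↔ g ∈ 𝐍(Z) ∧ ⁅g, b⁆ ∈ Z := Iff.rfl

theorem mem_st_of_comm (h1 : g ∈ 𝐍(Z)) (h : g * b = b * g) : g ∈ st Z b :=
  ⟨h1, by rw [commutatorElement_eq_one_iff_mul_comm.2 h]; exact one_mem _⟩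

/-- `B` is a nontrivial `2F`-offender on `V`. -/
def Off (B V : Subgroup G) : Prop := ¬ B ≤ 𝐂(V) ∧ 𝐂(B).relIndex V ≤ 𝐂(V).relIndex B ^ 2

theorem Off.conj (h : Off B V) (g : G) : Off (g ⋆ B) (g ⋆ V) := by
  rw [Off, ← conj_centralizer, ← conj_centralizer, relIndex_conj, relIndex_conj, conj_le_conj_iff]
  exact h

/-- `L` is generated by two conjugates of `Y` and the normal subgroup `A`. -/
structure Pr (Y A L : Subgroup G) (k : G) : Prop where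
  ab : Y ≤ 𝐂(Y)
  hA : A ≤ 𝐍(Y)
  hL : L ≤ 𝐍(A)
  mem : k ∈ L
  leY : Y ≤ L
  leA : A ≤ L
  gen : L ≤ Y ⊔ k ⋆ Y ⊔ A

namespace Pr

local notation "𝔈" => ncl Y L
local notation "𝔇" => ncl (Y ⊓ A) L
local notation "ℨ" => Y ⊓ A ⊓ 𝐂(ncl Y L)

variable (h : Pr Y A L k)
include h

theorem nk : A ≤ 𝐍(k ⋆ Y) := by
  rw [← conj_normalizer, ← conj_eq_of_norm (h.hL h.mem)]; exact conj_mono k h.hA

theorem abk : k ⋆ Y ≤ 𝐂(k ⋆ Y) := conj_centralizer k Y ▸ conj_mono k h.ab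

theorem conj_eq : k ⋆ (Y ⊓ A) = k ⋆ Y ⊓ A := by rw [conj_inf, conj_eq_of_norm (h.hL h.mem)]

theorem kY : k ⋆ Y ≤ L := conj_le_of_mem h.leY h.mem

theorem E_le : 𝔈 ≤ Y ⊔ k ⋆ Y := ncl_le le_sup_left (h.gen.trans (sup_le (le_norm _) (norm_sup h.hA h.nk)))

theorem c1 : ⁅A, Y⁆ ≤ Y ⊓ A := le_inf (comm_le_right h.hA) (comm_le_left (h.leY.trans h.hL))

theorem c2 : ⁅A, k ⋆ Y⁆ ≤ k ⋆ Y ⊓ A := le_inf (comm_le_right h.nk) (comm_le_left (h.kY.trans h.hL))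

theorem D_le : 𝔇 ≤ (Y ⊓ A) ⊔ (k ⋆ Y ⊓ A) := by
  have key : ∀ X W : Subgroup G, X ≤ 𝐂(X) → ⁅A, X⁆ ≤ X ⊓ A → X ≤ 𝐍((X ⊓ A) ⊔ (W ⊓ A)) := fun X W h1 h2 =>
    le_norm_iff.2 fun x hx => by
      have : (X ⊓ A) ⊔ (W ⊓ A) ≤ x⁻¹ ⋆ ((X ⊓ A) ⊔ (W ⊓ A)) := sup_le (fun a ha => by
        rw [mem_conj, inv_inv, ← mem_cent.1 (h1 hx) a ha.1, mul_inv_cancel_right]; exact mem_sup_left ha)
        fun a ha => by
          rw [mem_conj, inv_inv, show x * a * x⁻¹ = (a * x * a⁻¹ * x⁻¹)⁻¹ * a by group]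
          exact mul_mem (inv_mem (mem_sup_left (h2 (comm_mem_comm ha.2 hx)))) (mem_sup_right ha)
      intro w hw
      have := this hw
      rwa [mem_conj, inv_inv] at this
  refine ncl_le le_sup_left (h.gen.trans (sup_le (sup_le (key _ _ h.ab h.c1) ?_)
    (norm_sup (norm_inf h.hA (le_norm A)) (norm_inf h.nk (le_norm A)))))
  rw [sup_comm]; exact key _ _ h.abk h.c2

theorem nZ : L ≤ 𝐍(ℨ) := h.gen.trans (sup_le (sup_le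
  (norm_of_cent (cent_symm (inf_le_right.trans (cent_anti (le_ncl _ _)))))
  (norm_of_cent (cent_symm (inf_le_right.trans (cent_anti (conj_le_ncl _ h.mem))))))
  (norm_inf (norm_inf h.hA (le_norm A)) (norm_cent (h.leA.trans (norm_ncl _ _)))))

theorem mem_Z (h1 : b ∈ Y) (h2 : b ∈ k ⋆ Y ⊓ A) : b ∈ ℨ :=
  ⟨⟨h1, h2.2⟩, cent_anti h.E_le ((cent_sup Y _).ge ⟨h.ab h1, h.abk h2.1⟩)⟩

theorem Z_le : ℨ ≤ k ⋆ Y ⊓ A := by
  rw [← h.conj_eq, ← conj_eq_of_norm (h.nZ h.mem)]; exact conj_mono k inf_le_left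

theorem cEA : ⁅𝔈, A⁆ ≤ 𝔇 := comm_ncl_le h.hL (norm_ncl _ _) (h.leY.trans (norm_ncl _ _))
  (by rw [commutator_comm]; exact h.c1.trans (le_ncl _ _))

theorem D_le_st (hb : b ∈ k ⋆ Y ⊓ A) : 𝔇 ≤ st ℨ b := h.D_le.trans (sup_le
  (fun _ hy => ⟨h.nZ (h.leY hy.1), h.mem_Z (comm_le_left h.hA (commutator_mem_commutator hy.1 hb.2))
    (h.c2 (commutator_mem_commutator hy.2 hb.1))⟩)
  fun _ hy => mem_st_of_comm (h.nZ (h.kY hy.1)) (mem_cent.1 (h.abk hb.1) _ hy.1))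

theorem mem_of_le (hb : b ∈ k ⋆ Y ⊓ A) (h1 : 𝔈 ≤ st ℨ b) : b ∈ Y := by
  obtain ⟨e, he, a, ha, rfl⟩ := (mem_sup_left_norm (h.leA.trans (norm_ncl Y L))).1
    ((h.gen.trans (sup_le_sup_right (sup_le (le_ncl _ _) (conj_le_ncl _ h.mem)) A)) h.mem)
  have h2 : b ∈ (e * a) ⋆ Y := hb.1
  rw [← conj_conj, conj_eq_of_norm (h.hA ha), mem_conj] at h2
  have h3 : ⁅e⁻¹, b⁆ ∈ Y := (h1 (inv_mem he)).2.1.1
  rw [commutatorElement_def, inv_inv, mul_mem_cancel_left h2] at h3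
  exact inv_mem_iff.1 h3

theorem mem_of_comm (hy : y ∈ Y) (h1 : L ≤ zpowers y ⊔ k ⋆ Y ⊔ A) (hd : d ∈ 𝔇) (h2 : ⁅y, d⁆ ∈ ℨ) :
    d ∈ Y := by
  obtain ⟨x, hx, b, hb, rfl⟩ := (mem_sup_right_norm (H := Y ⊓ A) (N := k ⋆ Y ⊓ A)
    (inf_le_right.trans (norm_inf h.nk (le_norm A)))).1 (h.D_le hd)
  refine mul_mem hx.1 (h.mem_of_le hb ?_)
  have e0 : ⁅y, b⁆ ∈ ℨ := by
    have := conj_mem_of_norm' (h.nZ (h.leY hx.1)) h2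
    rwa [show x⁻¹ * ⁅y, x * b⁆ * x = x⁻¹ * (y * x) * b * y⁻¹ * b⁻¹ by
      simp only [commutatorElement_def]; group, mem_cent.1 (h.ab hx.1) y hy, inv_mul_cancel_left] at this
  have e1 : zpowers y ⊔ k ⋆ Y ⊔ 𝔇 ≤ st ℨ b := sup_le (sup_le (zpowers_le.2 (mem_st.2 ⟨h.nZ (h.leY hy), e0⟩))
    fun _ hw => mem_st_of_comm (h.nZ (h.kY hw)) (mem_cent.1 (h.abk hb.1) _ hw)) (h.D_le_st hb)
  have e3 : zpowers y ⊔ k ⋆ Y ⊔ 𝔇 ≤ 𝔈 := sup_le (sup_le (zpowers_le.2 (le_ncl Y L hy)) (conj_le_ncl _ h.mem))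
    (ncl_mono inf_le_left le_rfl)
  have e2 : L ≤ 𝐍(zpowers y ⊔ k ⋆ Y ⊔ 𝔇) := h1.trans (sup_le (le_norm_of_le le_sup_left)
    (norm_of_comm_le ((commutator_mono e3 le_rfl).trans (h.cEA.trans le_sup_right))))
  refine (ncl_le ?_ e2).trans e1
  exact (inv_conj_conj k Y).ge.trans (conj_le_of_norm (le_sup_right.trans le_sup_left) (e2 (inv_mem h.mem)))

end Pr

/-- A minimal configuration. -/
structure Cf (Q Y L : Subgroup G) : Prop where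
  el : IsElementaryAbelian 2 Y
  le : Y ≤ L
  leQ : Q ≤ L
  nc : ¬ Y ≤ pCoreOf 2 L
  gen : ∀ y ∈ Y, y ∉ pCoreOf 2 L → ∃ k ∈ L, L ≤ zpowers y ⊔ k ⋆ Y ⊔ Q

namespace Cf

variable (h : Cf Q Y L) (hQ : Q ≤ A) (hA : A ≤ 𝐍(Y)) (hL : L ≤ 𝐍(A)) (hAL : A ≤ L)
include h hQ hA hL hAL

theorem pr (hy : y ∈ Y) (hk : k ∈ L) (h1 : L ≤ zpowers y ⊔ k ⋆ Y ⊔ Q) : Pr Y A L k :=
  ⟨abelian_cent h.el.1, hA, hL, hk, h.le, hAL,
    h1.trans (sup_le_sup (sup_le_sup_right (zpowers_le.2 hy) _) hQ)⟩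

theorem mem (hy : y ∈ Y) (h0 : y ∉ pCoreOf 2 L) (hd : d ∈ ncl (Y ⊓ A) L)
    (h2 : ⁅y, d⁆ ∈ Y ⊓ A ⊓ 𝐂(ncl Y L)) : d ∈ Y :=
  let ⟨_, hk, h1⟩ := h.gen y hy h0
  (h.pr hQ hA hL hAL hy hk h1).mem_of_comm hy (h1.trans (sup_le_sup_left hQ _)) hd h2

end Cf

variable [Finite G]

theorem Cf.cub (h : Cf Q Y L) (hc : IsChP 2 L) (hQ : Q ≤ pCoreOf 2 L) (hA : pCoreOf 2 L ≤ 𝐍(Y)) :
    ∃ B ≤ 𝐍(Y), IsElementaryAbelian 2 B ∧ ⁅⁅⁅Y, B⁆, B⁆, B⁆ = ⊥ ∧ Off B Y := by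
  set A := pCoreOf 2 L
  have hL : L ≤ 𝐍(A) := le_normalizer_core 2 L
  obtain ⟨y, hy, h0⟩ := SetLike.not_le_iff_exists.1 h.nc
  obtain ⟨k, hk, h1⟩ := h.gen y hy h0
  have p := h.pr hQ hA hL (core_le 2 L) hy hk h1
  set Z := Y ⊓ A ⊓ 𝐂(ncl Y L)
  have hD : k ⋆ Y ⊓ A ≤ ncl (Y ⊓ A) L := p.conj_eq ▸ conj_le_ncl _ hk
  have hZ : Z ≤ 𝐂(k ⋆ Y ⊓ A) := inf_le_right.trans (cent_anti (inf_le_left.trans (conj_le_ncl _ hk)))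
  have a1 : Z.relIndex (k ⋆ Y ⊓ A) = Z.relIndex (Y ⊓ A) := by
    rw [← p.conj_eq, ← relIndex_conj k Z (Y ⊓ A), conj_eq_of_norm (p.nZ hk)]
  obtain ⟨b, hb, hb'⟩ : ∃ b ∈ k ⋆ Y ⊓ A, b ∉ Z := SetLike.not_le_iff_exists.1 fun e => by
    have e' : Y ⊓ A ≤ Z := relIndex_eq_one.1 (a1 ▸ relIndex_eq_one.2 e)
    refine h.nc (le_core_of_chain (Y := Z) (Z := ⊥) hc h.le (inf_le_left.trans inf_le_right) bot_le p.nZ
      le_normalizer_of_normal ?_ (comm_eq_bot_iff.2 (cent_symm (inf_le_right.trans (cent_anti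
        (le_ncl _ _))))).le (by simp))
    rw [commutator_comm]; exact p.c1.trans e'
  have a2 : ∀ x ∈ k ⋆ Y ⊓ A, x ∈ 𝐂(Y) → x ∈ Z := fun x hx e => p.mem_Z (h.mem hQ hA hL (core_le 2 L) hy h0
    (hD hx) (by rw [commutatorElement_eq_one_iff_mul_comm.2 (mem_cent.1 e y hy)]; exact one_mem _)) hx
  have a3 : Z.relIndex (Y ⊓ A) ≤ 𝐂(Y).relIndex (k ⋆ Y ⊓ A) := by
    rw [← a1, ← inf_relIndex_left (K := 𝐂(Y))]
    exact relIndex_le_of_le_left (fun x hx => a2 x hx.1 hx.2) index_ne_zero_of_finite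
  have a4 : (Y ⊓ A).relIndex Y ≤ Z.relIndex (Y ⊓ A) := relIndex_le_of_map (fun x => ⁅b, x⁆)
    (fun x hx => p.c1 (commutator_mem_commutator hb.2 hx)) fun x hx w hw e => by
      have hxw := mul_mem (inv_mem hx) hw
      refine ⟨hxw, by_contra fun e' => hb' (p.mem_Z (h.mem hQ hA hL (core_le 2 L) hxw e' (hD hb) ?_) hb)⟩
      have c := mem_cent.1 (p.ab (p.c1 (commutator_mem_commutator hb.2 hxw)).1) x hx
      rw [← commutatorElement_inv]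
      refine inv_mem ?_
      rwa [show ⁅b, x⁆⁻¹ * ⁅b, w⁆ = x * ⁅b, x⁻¹ * w⁆ * x⁻¹ by simp only [commutatorElement_def]; group, c,
        mul_inv_cancel_right] at e
  refine ⟨k ⋆ Y ⊓ A, inf_le_right.trans hA, elab_of_le ((elab_conj k).2 h.el) inf_le_left,
    comm_eq_bot_iff.2 (le_trans ?_ hZ), fun e => hb' (a2 b hb (e hb)), ?_⟩
  · refine commutator_le.2 fun x hx w hw => (p.D_le_st hw (le_ncl _ _ ?_)).2
    rw [commutator_comm] at hx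
    exact ((commutator_mono inf_le_right le_rfl).trans p.c1) hx
  · refine (relIndex_le_of_le_left hZ index_ne_zero_of_finite).trans ?_
    rw [← relIndex_mul_relIndex Z (Y ⊓ A) Y inf_le_left inf_le_left, sq]
    exact Nat.mul_le_mul a3 (a4.trans a3)

/-- Mutually normalizing conjugates give a quadratic offender. -/
theorem sym_off (hY : Y ≤ 𝐂(Y)) (h1 : g ⋆ Y ≤ 𝐍(Y)) (h2 : Y ≤ 𝐍(g ⋆ Y)) (h3 : ¬ g ⋆ Y ≤ 𝐂(Y)) :
    ∃ x, (x = g ∨ x = g⁻¹) ∧ ⁅⁅Y, x ⋆ Y⁆, x ⋆ Y⁆ = ⊥ ∧ x ⋆ Y ≤ 𝐍(Y) ∧ Off (x ⋆ Y) Y := by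
  have key : ∀ x : G, Y ≤ 𝐍(x ⋆ Y) → ⁅⁅Y, x ⋆ Y⁆, x ⋆ Y⁆ = ⊥ := fun x e =>
    comm_eq_bot_iff.2 ((comm_le_right e).trans (conj_centralizer x Y ▸ conj_mono x hY))
  rcases le_total (𝐂(g ⋆ Y).relIndex Y) (𝐂(Y).relIndex (g ⋆ Y)) with e | e
  · exact ⟨g, .inl rfl, key g h2, h1, h3, e.trans (Nat.le_self_pow two_ne_zero _)⟩
  have o : Off Y (g ⋆ Y) := ⟨fun e => h3 (cent_symm e), e.trans (Nat.le_self_pow two_ne_zero _)⟩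
  refine ⟨g⁻¹, .inr rfl, key _ ?_, ?_, by simpa only [inv_conj_conj] using o.conj g⁻¹⟩
  · rw [← conj_normalizer]; exact le_conj_iff_inv_conj_le.2 (by rwa [inv_inv])
  · rw [← conj_normalizer] at h2; exact le_conj_iff_inv_conj_le.1 h2

omit [Finite G] in
theorem Cf.of_le {X : Subgroup G} (h : Cf Q Y L) (hQ : Q ≤ pCoreOf 2 L) (hL : L ≤ 𝐍(Q))
    (hX : IsElementaryAbelian 2 X) (h1 : X ≤ Y ⊔ Q) (h2 : Y ≤ X ⊔ Q) : Cf Q X L := by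
  refine ⟨hX, h1.trans (sup_le h.le h.leQ), h.leQ, fun e => h.nc (h2.trans (sup_le e hQ)), fun x hx h0 => ?_⟩
  obtain ⟨y, hy, q, hq, rfl⟩ := (mem_sup_right_norm (h.le.trans hL)).1 (h1 hx)
  obtain ⟨k, hk, e⟩ := h.gen y hy fun e => h0 (mul_mem e (hQ hq))
  refine ⟨k, hk, e.trans (sup_le (sup_le (zpowers_le.2 ?_) ((conj_mono k h2).trans ?_)) le_sup_right)⟩
  · exact (mul_mem_cancel_right (mem_sup_right hq)).1 (mem_sup_left (mem_sup_left (mem_zpowers _)))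
  · rw [conj_sup, conj_eq_of_norm (hL hk)]
    exact sup_le_sup_right le_sup_right _

theorem exists_cf (hY : IsElementaryAbelian 2 Y) [Q.Normal] (h : ¬ Y ≤ pCoreOf 2 ⊤) :
    ∃ g L, Cf Q (g ⋆ Y) L := by
  obtain ⟨L, ⟨h1, g, h2, h3⟩, hm⟩ := (Set.toFinite {L : Subgroup G | Q ≤ L ∧ ∃ g : G, g ⋆ Y ≤ L ∧
    ¬ g ⋆ Y ≤ pCoreOf 2 L}).exists_minimal ⟨⊤, le_top, 1, le_top, by rwa [conj_one]⟩
  refine ⟨g, L, (elab_conj g).2 hY, h2, h1, h3, fun y hy h0 => ?_⟩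
  obtain ⟨k, hk, e⟩ := exists_conj_not_isPGroup_of_not_mem_pCore_map (h2 hy) h0
  have h4 : zpowers y ⊔ k ⋆ g ⋆ Y ⊔ Q ≤ L := sup_le (sup_le (zpowers_le.2 (h2 hy)) (conj_le_of_mem h2 hk)) h1
  refine ⟨k, hk, hm ⟨le_sup_right, k * g, conj_conj k g Y ▸ le_sup_right.trans le_sup_left, fun e' => e ?_⟩ h4⟩
  refine (isPGroup_sup_core (H := zpowers y ⊔ k ⋆ g ⋆ Y ⊔ Q) (P := zpowers y) ((elab_pgroup ((elab_conj g).2 hY)).to_le (zpowers_le.2 hy))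
    (le_norm_of_le (le_sup_left.trans le_sup_left))).to_le ((closure_le _).2 ?_)
  rintro _ (rfl | rfl)
  · exact mem_sup_right (mem_zpowers _)
  · exact mem_sup_left (e' (conj_conj k g Y ▸ conj_mem_conj.2 hy))

/-- The first part of the `qrc`-lemma. -/
theorem cub (hc : IsChP 2 (⊤ : Subgroup G)) (hT : SylIn 2 T ⊤) (hY : IsElementaryAbelian 2 Y) (hTY : T ≤ 𝐍(Y))
    (h0 : ¬ Y ≤ pCoreOf 2 ⊤) (hm : ∀ m ∈ 𝐍(Y ⊓ pCoreOf 2 ⊤), m ⋆ Y ≤ Y ⊔ pCoreOf 2 ⊤) :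
    ∃ B ≤ T, IsElementaryAbelian 2 B ∧ ⁅⁅⁅Y, B⁆, B⁆, B⁆ = ⊥ ∧ Off B Y := by
  set Q := pCoreOf 2 (⊤ : Subgroup G)
  have nQ : Q.Normal := Core.pCoreOf_normal 2 ⊤
  have cj : ∀ (x : G) (B : Subgroup G), B ≤ 𝐍(x ⋆ Y) → IsElementaryAbelian 2 B → ⁅⁅⁅x ⋆ Y, B⁆, B⁆, B⁆ = ⊥ →
      Off B (x ⋆ Y) → ∃ B ≤ T, IsElementaryAbelian 2 B ∧ ⁅⁅⁅Y, B⁆, B⁆, B⁆ = ⊥ ∧ Off B Y := fun x B a b c d => by
    rw [← conj_normalizer, le_conj_iff_inv_conj_le] at a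
    obtain ⟨n, hn, e⟩ := CGT.SylIn.exists_le (hT.of_le hTY le_top) (elab_pgroup ((elab_conj _).2 b)) a
    have e1 : (n⁻¹ * x⁻¹) ⋆ x ⋆ Y = Y := by
      rw [conj_conj, inv_mul_cancel_right, conj_eq_of_norm (inv_mem hn)]
    refine ⟨(n⁻¹ * x⁻¹) ⋆ B, conj_conj _ _ B ▸ le_conj_iff_inv_conj_le.1 e, (elab_conj _).2 b, ?_,
      e1 ▸ d.conj _⟩
    rw [← e1, ← conj_commutator, ← conj_commutator, ← conj_commutator, c, conj_eq_bot_iff]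
  by_contra hn
  obtain ⟨g, L, c⟩ := exists_cf (Q := Q) hY h0
  have hQ : Q ≤ pCoreOf 2 L := le_core c.leQ le_normalizer_of_normal (core_pgroup 2 ⊤)
  have hX : ∀ x : G, x ⋆ (Y ⊓ Q) = x ⋆ Y ⊓ Q := fun x => by rw [conj_inf, conj_eq_self_of_normal (H := Q)]
  have hN : ∀ x : G, Q ≤ 𝐍(x ⋆ Y) := fun x => by
    rw [← conj_normalizer, ← conj_eq_self_of_normal (H := Q) x]
    exact conj_mono x ((core_le_of_not_dvd hT.2.2).trans hTY)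
  -- every `2`-subgroup over `Y Q` normalizing `Y ∩ Q` normalizes a conjugate of `Y`
  have key : ∀ F : Subgroup G, IsPGroup 2 F → F ≤ 𝐍(g ⋆ Y ⊓ Q) → ∃ x, F ≤ 𝐍(x ⋆ Y) ∧ x ⋆ Y ≤ g ⋆ Y ⊔ Q ∧
      x ⋆ Y ⊓ Q = g ⋆ Y ⊓ Q ∧ Cf Q (x ⋆ Y) L := fun F a b => by
    rw [← hX, ← conj_normalizer, le_conj_iff_inv_conj_le] at b
    obtain ⟨m, h1, e⟩ := CGT.SylIn.exists_le (hT.of_le (norm_inf hTY le_normalizer_of_normal) le_top)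
      ((pgroup_conj _).2 a) b
    have e1 : ∀ x y : G, y⁻¹ * x ∈ 𝐍(Y ⊓ Q) → x ⋆ Y ≤ y ⋆ Y ⊔ Q := fun x y e => by
      have := conj_mono y (hm _ e)
      rwa [conj_conj, mul_inv_cancel_left, conj_sup, conj_eq_self_of_normal (H := Q)] at this
    have e2 := e1 (g * m) g (by simpa using h1)
    refine ⟨g * m, ?_, e2, by rw [← hX, ← hX, ← conj_conj, conj_eq_of_norm h1],
      c.of_le hQ le_normalizer_of_normal ((elab_conj _).2 hY) e2 (e1 _ _ (by simpa using h1))⟩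
    rw [← conj_normalizer, ← conj_conj]
    exact le_conj_iff_inv_conj_le.2 (e.trans (conj_mono m hTY))
  have pF : IsPGroup 2 ↥(pCoreOf 2 L ⊔ g ⋆ Y) := isPGroup_sup_core (elab_pgroup c.el) (le_norm_of_le c.le)
  have hF : pCoreOf 2 L ⊔ g ⋆ Y ≤ 𝐍(g ⋆ Y ⊓ Q) := by
    by_contra e
    obtain ⟨f, hf, h1⟩ := SetLike.exists_of_lt (lt_inf_normalizer_of_lt_of_isPGroup pF
      (lt_of_le_not_ge (inf_le_left (b := 𝐍(g ⋆ Y ⊓ Q))) fun e' => e (e'.trans inf_le_right)))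
    obtain ⟨x, a1, a2, a3, a4⟩ := key _ pF.to_inf_left inf_le_right
    have a5 : x ⋆ Y ≤ (pCoreOf 2 L ⊔ g ⋆ Y) ⊓ 𝐍(g ⋆ Y ⊓ Q) := a2.trans (le_inf
      (sup_le le_sup_right (hQ.trans le_sup_left)) (sup_le (norm_inf (le_norm _) le_normalizer_of_normal)
        (norm_inf (hN g) (le_norm _))))
    have a6 : f ⋆ x ⋆ Y ≤ 𝐂(x ⋆ Y) := by
      by_contra e'
      obtain ⟨z, -, b1, b2, b3⟩ := sym_off (abelian_cent a4.el.1) ((conj_le_of_norm a5 hf.2).trans a1)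
        (a5.trans ((conj_eq_of_norm hf.2).ge.trans (conj_normalizer f _ ▸ conj_mono f a1))) e'
      exact hn (cj x _ b2 ((elab_conj _).2 a4.el) (by rw [b1, commutator_bot_left]) b3)
    obtain ⟨y, hy, y0⟩ := SetLike.not_le_iff_exists.1 a4.nc
    refine h1 ⟨hf.1, a3 ▸ mem_normalizer_of_conj_le fun d hd => ?_⟩
    have hd' := (conj_inf f _ _).le hd
    rw [conj_eq_self_of_normal (H := Q)] at hd'
    refine ⟨a4.mem le_rfl (hN x) le_normalizer_of_normal c.leQ hy y0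
      (conj_le_ncl _ (sup_le (core_le 2 L) c.le hf.1) hd) ?_, hd'.2⟩
    rw [commutatorElement_eq_one_iff_mul_comm.2 (mem_cent.1 (a6 hd'.1) y hy)]; exact one_mem _
  obtain ⟨x, a1, -, -, a4⟩ := key _ pF hF
  obtain ⟨B, b1, b2, b3, b4⟩ := a4.cub (hc.of_core_le c.leQ le_top) hQ (le_sup_left.trans a1)
  exact hn (cj x B b1 b2 b3 b4)

end Cfsg.Lib.QRC
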