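import Cfsg.Agent.Lib.QRC.A
import Cfsg.Agent.Lib.Loc.YMin
import Cfsg.Agent.Lib.PLocal.SylChain

/-!
# The `qrc`-lemma: counting lemmas and the case `V ≰ O₂(H)`
-/

set_option autoImplicit false

namespace Cfsg.Lib.QRC

open Subgroup Cfsg.Lib.BG Cfsg.Lib.Transfer Cfsg.Lib.Loc Cfsg.Lib.PLocal Cfsg.Lib.GC
open scoped commutatorElement

variable {G : Type*} [Group G] [Finite G] {B C M T U V W X Z : Subgroup G}

theorem two_le_relIndex (h : ¬ B ≤ C) : 2 ≤ C.relIndex B :=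
  (Nat.two_le_iff _).2 ⟨index_ne_zero_of_finite, mt relIndex_eq_one.1 h⟩

/-- The count for a pairing into a group of order `2`. -/
theorem pair [Z.Normal] (hZ : Z.relIndex W ≤ 2) (h : ⁅X, V⁆ ≤ W) : (relCent X Z).relIndex V ≤ 𝐂(V).relIndex X := by
  obtain ⟨B, ⟨b1, b2, b3⟩, hm⟩ := (Set.toFinite {B | X ⊓ 𝐂(V) ≤ B ∧ B ≤ X ∧
      (relCent B Z).relIndex V ≤ (X ⊓ 𝐂(V)).relIndex B}).exists_maximal ⟨_, le_rfl, inf_le_left, by
    rw [relIndex_self, relIndex_eq_one.2 (le_relCent.2 ⟨le_normalizer_of_normal,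
      (comm_eq_bot_iff.2 (cent_symm inf_le_right)).le.trans bot_le⟩)]⟩
  rw [← inf_relIndex_left X]
  refine le_antisymm b2 (fun x hx => by_contra fun e => ?_) ▸ b3
  have a1 : ¬ B ⊔ zpowers x ≤ B := fun e' => e (e' (mem_sup_right (mem_zpowers x)))
  refine a1 (hm ⟨b1.trans le_sup_left, sup_le b2 (zpowers_le.2 hx), ?_⟩ le_sup_left)
  have a2 : relCent B Z ⊓ st Z x ≤ relCent (B ⊔ zpowers x) Z := fun v hv => ⟨hv.2.1, fun l hl => by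
    rw [← commutatorElement_inv]
    exact inv_mem (sup_le (a := B) (c := st Z v) (fun b hb => ⟨le_normalizer_of_normal (mem_top b), by
      rw [← commutatorElement_inv]; exact inv_mem (hv.1.2 b hb)⟩) (zpowers_le.2 ⟨le_normalizer_of_normal
        (mem_top x), by rw [← commutatorElement_inv]; exact inv_mem hv.2.2⟩) hl).2⟩
  have a3 : (st Z x).relIndex V ≤ Z.relIndex W := relIndex_le_of_map (fun v => ⁅x, v⁆)
    (fun v hv => h (commutator_mem_commutator hx hv)) fun v _ w _ e => ⟨le_normalizer_of_normal (mem_top _), by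
      rw [show ⁅v⁻¹ * w, x⁆ = v⁻¹ * (⁅x, v⁆⁻¹ * ⁅x, w⁆)⁻¹ * v⁻¹⁻¹ by simp only [commutatorElement_def]; group]
      exact Normal.conj_mem inferInstance _ (inv_mem e) _⟩
  rw [← relIndex_mul_relIndex _ B _ b1 le_sup_left]
  exact (relIndex_le_of_le_left a2 index_ne_zero_of_finite).trans (relIndex_inf_le.trans
    (Nat.mul_le_mul b3 (a3.trans (hZ.trans (two_le_relIndex a1)))))

/-- An invariant hyperplane. -/
theorem exists_hyp (hW : IsElementaryAbelian 2 W) (hT : IsPGroup 2 T) (hn : T ≤ 𝐍(W)) (h0 : W ≠ ⊥) :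
    ∃ Z < W, T ≤ 𝐍(Z) ∧ Z.relIndex W = 2 := by
  obtain ⟨Z, ⟨b1, b2⟩, hm⟩ := (Set.toFinite {Z | Z < W ∧ T ≤ 𝐍(Z)}).exists_maximal
    ⟨⊥, bot_lt_iff_ne_bot.2 h0, le_normalizer_of_normal⟩
  have a1 : W ≤ 𝐍(Z) := norm_of_cent ((abelian_cent hW.1).trans (cent_anti b1.le))
  obtain ⟨U, u1, u2, u3⟩ := exists_comm_le_of_lt (elab_pgroup hW) hT ⟨b1.le, a1⟩ b1.not_ge hn b2
  obtain ⟨w, hw, e⟩ := SetLike.exists_of_lt u1
  have a2 : Z ⊔ zpowers w ≤ U := sup_le u1.le (zpowers_le.2 hw)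
  refine ⟨Z, b1, b2, ((a2.trans u2).eq_or_lt.resolve_right fun e' => e (hm ⟨e', norm_of_comm_le
    ((commutator_mono a2 le_rfl).trans (u3.trans le_sup_left))⟩ le_sup_left (mem_sup_right (mem_zpowers w)))) ▸
      PGroup.relIndex_sup_zpowers (a1 (u2 hw)) e (hW.2 w (u2 hw) ▸ one_mem _)⟩

/-- An offender on the normal closure of `V` contains an offender on a conjugate of `V`. -/
theorem Off.desc (h : Off B (ncl V ⊤)) : ∃ g, ∃ C ≤ B, Off C (g ⋆ V) := by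
  obtain ⟨C, ⟨c1, c2, c3⟩, hm⟩ := (Set.toFinite {C | C ≤ B ∧ Off C (ncl V ⊤)}).exists_minimal ⟨B, le_rfl, h⟩
  obtain ⟨g, hg⟩ : ∃ g, ¬ C ≤ 𝐂(g ⋆ V) := not_forall.1 fun e => c2 (cent_symm (iSup_le fun g => cent_symm (e g)))
  refine ⟨g, C, c1, hg, not_lt.1 fun e => ?_⟩
  have a0 : g ⋆ V ≤ ncl V ⊤ := conj_le_ncl _ (mem_top g)
  set U := ncl V ⊤
  have a1 : 𝐂(U).relIndex (C ⊓ 𝐂(g ⋆ V)) ^ 2 ≤ 𝐂(C ⊓ 𝐂(g ⋆ V)).relIndex U := by
    by_cases e' : C ⊓ 𝐂(g ⋆ V) ≤ 𝐂(U)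
    · rw [relIndex_eq_one.2 e']; exact Nat.pos_of_ne_zero index_ne_zero_of_finite
    · exact not_lt.1 fun e'' => hg ((hm ⟨inf_le_left.trans c1, e', e''.le⟩ inf_le_left).trans inf_le_right)
  have a2 := relIndex_le_of_le_right (H := 𝐂(C)) (le_inf (cent_symm (inf_le_right (a := C))) a0) index_ne_zero_of_finite
  have a3 := relIndex_inf_mul_relIndex 𝐂(C) 𝐂(C ⊓ 𝐂(g ⋆ V)) U
  have a4 := relIndex_inf_mul_relIndex 𝐂(U) 𝐂(g ⋆ V) C
  rw [inf_eq_left.2 (cent_anti inf_le_left)] at a3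
  rw [inf_eq_left.2 (cent_anti a0), inf_comm] at a4
  rw [← a3, ← a4, mul_pow, mul_comm] at c3
  exact (Nat.mul_lt_mul_of_le_of_lt' a1 (e.trans_le a2)
    (pow_pos (Nat.pos_of_ne_zero index_ne_zero_of_finite) 2)).not_ge c3

/-- The case `V ≰ O₂(H)`. -/
theorem cubV (hc : IsChP 2 (⊤ : Subgroup G)) (hT : SylIn 2 T ⊤) (hu : ∀ K, T ≤ K → K < ⊤ → K ≤ M) (hM : T ≤ M)
    (hV : IsElementaryAbelian 2 V) (h1 : V ≤ T) (h2 : T ≤ 𝐍(V)) (h3 : M ≤ 𝐍(C)) (h4 : T ⊓ C = T ⊓ 𝐂(V))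
    (h0 : ¬ V ≤ pCoreOf 2 ⊤) : ∃ B ≤ T, IsElementaryAbelian 2 B ∧ ⁅⁅⁅V, B⁆, B⁆, B⁆ = ⊥ ∧ Off B V := by
  set Q := pCoreOf 2 (⊤ : Subgroup G)
  have nQ : Q.Normal := Core.pCoreOf_normal 2 ⊤
  have hQ : Q ≤ T := core_le_of_not_dvd hT.2.2
  set Y := omegaOneCenter 2 (T ⊓ 𝐂(V))
  have a1 : V ≤ Y := le_oz hV (le_inf h1 (abelian_cent hV.1)) (cent_symm inf_le_right)
  have a2 : T ≤ 𝐍(Y) := (norm_inf (le_norm T) (norm_cent h2)).trans (normalizer_le_normalizer_oz _)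
  have a3 : T ⊓ 𝐂(V) ≤ 𝐂(Y) := le_centralizer_oz _
  have a4 : ⁅Y, Q⁆ ≤ Y ⊓ Q := le_inf (comm_le_left (hQ.trans a2)) (comm_le_right le_normalizer_of_normal)
  have a5 : T ≤ 𝐍(Y ⊓ Q) := norm_inf a2 le_normalizer_of_normal
  have a6 : 𝐍(Y ⊓ Q) ≤ M := hu _ a5 (lt_top_iff_ne_top.2 fun e => h0 (a1.trans (le_core_of_chain (Z := ⊥) hc
    le_top inf_le_right bot_le e.ge le_normalizer_of_normal a4 (comm_eq_bot_iff.2 ((abelian_cent
      (oz_elemAb _).1).trans (cent_anti inf_le_left))).le (by simp))))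
  have a7 : 𝐍(Y ⊓ Q) ≤ 𝐍(C ⊓ 𝐂(Y ⊓ Q)) := norm_inf (a6.trans h3) (norm_cent le_rfl)
  have a8 : SylIn 2 (T ⊓ 𝐂(V)) (C ⊓ 𝐂(Y ⊓ Q)) := by
    have := CGT.SylIn.inf_norm (hT.of_le a5 le_top) (inf_le_right.trans (norm_of_cent le_rfl)) a7
    rwa [← inf_assoc, h4, inf_eq_left.2 (a3.trans (cent_anti inf_le_left))] at this
  have a9 : ⁅C ⊓ 𝐂(Y ⊓ Q), Y⁆ ≤ Q := by
    refine le_trans (le_inf le_top (comm_eq_bot_iff.1 (commutator_commutator_eq_bot_of_rotate ?_ ?_))) hc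
    · exact comm_eq_bot_iff.2 (a4.trans (cent_symm inf_le_right))
    · refine comm_eq_bot_iff.2 (le_trans (h4 ▸ le_inf ((comm_le_left le_normalizer_of_normal).trans hQ)
        ((commutator_mono le_rfl inf_le_left).trans (comm_le_right (hQ.trans (hM.trans h3))))) a3)
  obtain ⟨B, b1, b2, b3, b4, b5⟩ := cub hc hT (oz_elemAb _) a2 (fun e => h0 (a1.trans e)) fun m hm => by
    obtain ⟨e, he, e1⟩ := a8.exists_conj (T := m ⋆ (T ⊓ 𝐂(V))) (conj_eq_of_norm (a7 hm) ▸ a8.conj m)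
    have e2 : (m⁻¹ * e) ⋆ Y = Y := conj_eq_of_norm (normalizer_le_normalizer_oz _ (norm_of_conj_eq (by
      rw [← conj_conj, e1, inv_conj_conj])))
    rw [show m ⋆ omegaOneCenter 2 (T ⊓ 𝐂(V)) = e ⋆ Y by
      rw [← mul_inv_cancel_left m e, ← conj_conj, e2]]
    rintro _ ⟨y, hy, rfl⟩
    rw [show (MulAut.conj e).toMonoidHom y = ⁅e, y⁆ * y by simp [commutatorElement_def]]
    exact mul_mem (mem_sup_right (a9 (commutator_mem_commutator he hy))) (mem_sup_left hy)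
  have b6 : B ⊓ 𝐂(V) = B ⊓ 𝐂(Y) := le_antisymm (le_inf inf_le_left ((inf_le_inf_right _ b1).trans a3))
    (inf_le_inf_left _ (cent_anti a1))
  refine ⟨B, b1, b2, eq_bot_iff.2 (b3 ▸ commutator_mono (commutator_mono (commutator_mono a1 le_rfl) le_rfl) le_rfl),
    fun e => b4 ((le_inf le_rfl e).trans (b6.le.trans inf_le_right)), ?_⟩
  rw [← inf_relIndex_left B, b6, inf_relIndex_left]
  exact (relIndex_le_of_le_right a1 index_ne_zero_of_finite).trans b5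

end Cfsg.Lib.QRC
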