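import Cfsg.Agent.Lib.CGT.Cmp
import Cfsg.Agent.Lib.PLocal.NatFacts
import Cfsg.Agent.Lib.Coprime.SZ

/-!
# The normal closure of an offender in the maximal subgroup of a minimal parabolic group
-/

set_option autoImplicit false

namespace Cfsg.Lib.CGT

open Subgroup Cfsg.Lib.BG Cfsg.Lib.Transfer Cfsg.Lib.Loc Cfsg.Lib.PLocal Cfsg.Lib.Root Equiv

variable {H W : Type*} [Group H] [AddCommGroup W] [DistribMulAction H W] {p : ℕ}
  {B D E N T M X Y : Subgroup H} [Finite H] [hp : Fact p.Prime]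

theorem SylIn.inf_sup_le (h : SylIn p T N) (hX : X ≤ N) (hY : Y ≤ N) (h1 : N ≤ 𝐍(X)) (h2 : N ≤ 𝐍(Y)) :
    T ⊓ (X ⊔ Y) ≤ T ⊓ X ⊔ T ⊓ Y := by
  have a1 : T ⊓ X ⊔ T ⊓ Y ≤ T ⊓ (X ⊔ Y) := sup_le (inf_le_inf_left _ le_sup_left) (inf_le_inf_left _ le_sup_right)
  refine (SylIn.eq_of_le (p := p) (M := X ⊔ Y) ⟨a1.trans inf_le_right, h.2.1.to_inf_left.to_le a1, fun e => ?_⟩
    h.2.1.to_inf_left inf_le_right a1).ge
  rw [← relIndex_mul_relIndex _ (X ⊔ T ⊓ Y) _ (sup_le_sup_right inf_le_right _) (sup_le_sup_left inf_le_right _)] at e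
  have key : ∀ A B K : Subgroup H, B ≤ 𝐍(K) → T ⊓ K ≤ B → SylIn p (T ⊓ K) K → B ≤ A → A ≤ K ⊔ B →
      ¬ p ∣ B.relIndex A := fun A B K a b c d e f => c.2.2 (f.trans ((relIndex_dvd_right d e).trans (by
    rw [Coprime.relIndex_sup_right_of_le_normalizer a]; exact relIndex_dvd_left b K)))
  have a2 : X ⊔ T ⊓ Y ≤ N := sup_le hX (inf_le_right.trans hY)
  rcases hp.out.dvd_mul.1 e with e | e
  · exact key _ _ X (((sup_le_sup_right inf_le_right _).trans a2).trans h1) le_sup_left (SylIn.inf_norm h hX h1)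
      (sup_le_sup_right inf_le_right _) (sup_le_sup_left le_sup_right _) e
  · exact key _ _ Y (a2.trans h2) le_sup_right (SylIn.inf_norm h hY h2) (sup_le_sup_left inf_le_right _)
      (sup_le (le_sup_left.trans le_sup_right) le_sup_left) e

variable [Finite W]

theorem Hyp.exists_cmp (h : Hyp W p T M) (hB : MinOff W p B) (hT : B ≤ T) (hD : B ≤ D) (hM : M ≤ 𝐍(D)) :
    ∃ E, (∀ g ∈ T, g ⋆ E = E ∨ g ⋆ E ≤ 𝐂(E)) ∧ E ⊔ T = ⊤ ∧ T ⊓ E ≤ D := by
  have c := h.ctx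
  have P := h.pts (h.tg hB)
  rcases h.typ hB hT with ⟨F, _, _, n, l, hl, hl1, rfl, hL⟩ |
    ⟨rfl, h3, n, t, a, ht, hm, hJ, hL, ha, rfl⟩
  · have := n.charP c
    refine ⟨_, fun g hg => (P.conj_eq_or n (self_mem_cl _) hL hl hl1 h.syl.2.1 hT hg).imp (fun e => conj_eq_of_norm
        (P.norm_le n (self_mem_cl _) hL hl hl1 (norm_of_conj_eq e))) And.left, (h.max _ le_sup_right).resolve_left
          fun e => hL 1 ((le_sup_left.trans e).trans (conj_one M).ge), le_trans (ge_of_eq ?_) hD⟩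
    refine SylIn.eq_of_le (M := n.σ.range) ?_ h.syl.2.1.to_inf_left inf_le_right (le_inf hT n.up_le)
    rw [MonoidHom.range_eq_map]
    exact (SylIn.map_iff n.injective).2 sylIn_upper
  have h4 : ∀ A ∈ cl (zpowers (t a a.rev)), Nat.card A = 2 := fun _ ⟨g, e⟩ =>
    e ▸ (card_conj _ _).trans h3
  obtain ⟨o, ho, h5⟩ := P.exists_center ht h4 hm hJ hL
  refine ⟨_, fun g _ => (ht.conj_eq_or c hm g).imp_right And.left, (h.max _ le_sup_right).resolve_left
      fun e => hL (le_sup_left.trans e), ?_⟩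
  have m1 : ∀ i ≠ o, ∀ j ≠ o, t i j ∈ M := fun i hi j hj => P.mem_of_ne ht h4 hm hJ (by grind) (by grind)
  have m2 : ∀ i ≠ o, ∀ j ≠ o, i ≠ j → t i j ∈ D → ∀ k ≠ o, t j k ∈ D := fun i hi j hj e d k hk => by
    rcases eq_or_ne j k with rfl | e1
    · rw [ht.refl]; exact one_mem _
    have := conj_mem_of_norm (hM (m1 i hi k hk)) d
    rwa [ht.inv_eq, ht.tri c e.symm e1, ht.symm c] at this
  have m3 : ∀ i ≠ o, ∀ j ≠ o, t i j ∈ D ⊓ M := fun i hi j hj => by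
    have e1 : a ≠ o := by grind
    have e2 : a.rev ≠ o := by grind
    have e3 := m2 a e1 _ e2 ha (hD (mem_zpowers _))
    refine ⟨?_, m1 i hi j hj⟩
    rcases eq_or_ne a.rev i with rfl | e
    exacts [e3 j hj, m2 _ e2 i hi e (e3 i hi) j hj]
  let S : H → Prop := fun g => ∀ i, ∃ j, t j o * g * t i o ∈ D ⊓ M
  have s1 : ∀ {x y}, S x → S y → S (x * y) := fun {x y} hx hy i => by
    obtain ⟨j, e⟩ := hy i
    obtain ⟨k, e'⟩ := hx j
    refine ⟨k, ?_⟩
    have := mul_mem e' e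
    rwa [mul_assoc (t j o), mul_assoc, ← mul_assoc (t j o), ht.mul_self, one_mul, ← mul_assoc, mul_assoc _ x] at this
  have s0 : S 1 := fun i => ⟨i, by rw [mul_one, ht.mul_self]; exact one_mem _⟩
  have s2 : ∀ k, S (t k o) := fun k i => by
    rcases eq_or_ne i o with rfl | e
    · exact ⟨k, by rw [ht.mul_self, ht.refl, one_mul]; exact one_mem _⟩
    rcases eq_or_ne k i with rfl | e'
    · exact ⟨o, by rw [ht.refl, one_mul, ht.mul_self]; exact one_mem _⟩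
    rcases eq_or_ne k o with rfl | e''
    · exact ⟨i, by rw [ht.refl, mul_one, ht.mul_self]; exact one_mem _⟩
    exact ⟨i, by rw [ht.symm c i, ht.symm c k, ht.tri c e'' e']; exact m3 i e k e''⟩
  have s3 : ∀ k l, S (t k l) := fun k l => by
    rcases eq_or_ne l o with rfl | e
    · exact s2 k
    rcases eq_or_ne k o with rfl | e'
    · exact ht.symm c _ _ ▸ s2 l
    refine fun i => ⟨swap k l i, ?_⟩
    have := ht.conj_eq c k l i o
    rw [swap_apply_of_ne_of_ne e'.symm e.symm] at this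
    rw [← this, mul_assoc _ (t k l) (t k l), ht.mul_self, mul_one, mul_assoc, ht.mul_self, mul_one]
    exact m3 k e' l e
  let K : Subgroup H := ⟨⟨⟨{g | S g ∧ S g⁻¹}, fun a b => ⟨s1 a.1 b.1, by rw [mul_inv_rev]; exact s1 b.2 a.2⟩⟩,
    s0, by rw [inv_one]; exact s0⟩, fun a => ⟨a.2, by rw [inv_inv]; exact a.1⟩⟩
  intro x hx
  obtain ⟨j, e⟩ := ((gen_le (X := K)).2 (fun i j => ⟨s3 i j, (ht.inv_eq i j).symm ▸ s3 i j⟩) hx.2).1 o
  rw [ht.refl, mul_one] at e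
  rcases eq_or_ne j o with rfl | e'
  · rw [ht.refl, one_mul] at e; exact e.1
  · exact (h5 j e' ((mul_mem_cancel_right (h.le hx.1)).1 e.2)).elim

/-- A subgroup normalized by `M` containing an offender contains `T ∩ O^p(H)`. -/
theorem Hyp.inf_res_le (h : Hyp W p T M) (hB : MinOff W p B) (hT : B ≤ T) (hD : B ≤ D) (hM : M ≤ 𝐍(D)) :
    T ⊓ pResidualOf p ⊤ ≤ D := by
  obtain ⟨E, h1, h2, h3⟩ := h.exists_cmp hB hT hD hM
  set N := ⨆ s : T, (s : H) ⋆ E
  have a1 : ∀ s ∈ T, s ⋆ E ≤ N := fun s hs => le_iSup (fun s : T => (s : H) ⋆ E) ⟨s, hs⟩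
  have a2 : ⊤ ≤ 𝐍(N) := h2.ge.trans (sup_le (le_norm_of_le ((conj_one E).ge.trans (a1 1 (one_mem T))))
    (norm_iSup_conj T E))
  have a3 : ∀ s ∈ T, N ≤ 𝐍(s ⋆ E) := fun s hs => by
    rw [← conj_normalizer, ← conj_eq_of_norm (a2 (mem_top s))]
    exact conj_mono s (iSup_le fun g => (h1 g g.2).elim (fun e => e.le.trans (le_norm E)) norm_of_cent)
  have hS := SylIn.inf_norm h.syl le_top a2
  obtain ⟨Y, ⟨b1, b2, b3⟩, hm⟩ := (Set.toFinite {Y : Subgroup H | Y ≤ N ∧ N ≤ 𝐍(Y) ∧ T ⊓ Y ≤ D}).exists_maximal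
    ⟨⊥, bot_le, le_normalizer_of_normal, inf_le_right.trans bot_le⟩
  have a4 : N ≤ Y := iSup_le fun s => le_sup_right.trans (hm ⟨sup_le b1 (a1 s s.2), norm_sup b2 (a3 s s.2),
    (le_inf (inf_le_inf_left _ (sup_le b1 (a1 s s.2))) inf_le_right).trans
      ((SylIn.inf_sup_le hS b1 (a1 s s.2) b2 (a3 s s.2)).trans (sup_le
        ((inf_le_inf_right _ inf_le_left).trans b3) ((inf_le_inf_right _ inf_le_left).trans (by
          have := conj_le_of_norm h3 (hM (h.le s.2))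
          rwa [conj_inf, conj_eq_of_mem s.2] at this))))⟩ le_sup_left)
  refine (inf_le_inf_left _ (le_trans ?_ a4)).trans b3
  rw [← top_le_iff.1 (h2.ge.trans (sup_le_sup_right ((conj_one E).ge.trans (a1 1 (one_mem T))) T)), sup_comm,
    res_sup_of_isPGroup h.syl.2.1 (le_top.trans a2)]
  exact res_le _ _

end Cfsg.Lib.CGT
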