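import Cfsg.Agent.Lib.QRC.B
import Cfsg.Agent.Lib.QRC.P
import Cfsg.Agent.Lib.CS.Sec
import Cfsg.Agent.Lib.CGT.Fix

/-!
# The `qrc`-lemma: offenders on sections of a minimal parabolic group
-/

set_option autoImplicit false

namespace Cfsg.Lib.QRC

open Subgroup Cfsg.Lib.BG Cfsg.Lib.Transfer Cfsg.Lib.Loc Cfsg.Lib.PLocal Cfsg.Lib.GC Cfsg.Lib.CGT Cfsg.Lib.CS
open scoped commutatorElement

variable {G : Type*} [Group G] [Finite G] {p : ℕ} [Fact p.Prime] {A L M S T U V Z : Subgroup G}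

local notation "𝔔" => pCoreOf p (⊤ : Subgroup G)
local notation "𝔎" => pResidualOf p (⊤ : Subgroup G)

/-- Averaging modulo a normal subgroup. -/
theorem avg [Z.Normal] (hU : IsElementaryAbelian p U) (hL : L ≤ 𝐍(U)) (hS : ¬ p ∣ S.relIndex L) (hV : V ≤ U)
    (h : ⁅V, S⁆ ≤ Z) : V ≤ U ⊓ relCent L Z ⊔ ⁅U, L⁆ ⊔ Z := by
  have e := elab_map hU (QuotientGroup.mk' Z)
  have := inf_centralizer_le_sup_commutator e.1 (elab_pgroup e) (map_norm _ hL) (not_dvd_relIndex_map _ hS)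
  nth_rewrite 2 [← QuotientGroup.ker_mk' Z]
  rw [← comap_map_eq, ← map_le_iff_le_comap, Subgroup.map_sup, map_commutator]
  refine (le_inf (map_mono hV) ?_).trans (this.trans (sup_le_sup_right ?_ _))
  · rwa [← comm_eq_bot_iff, ← map_commutator, Subgroup.map_eq_bot_iff, QuotientGroup.ker_mk']
  · rintro _ ⟨⟨u, hu, rfl⟩, h1⟩
    exact mem_map_of_mem _ ⟨hu, le_normalizer_of_normal (mem_top u), fun l hl => (QuotientGroup.eq_one_iff _).1
      ((map_commutatorElement (QuotientGroup.mk' Z) u l).trans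
        (commutatorElement_eq_one_iff_mul_comm.2 (h1 _ (mem_map_of_mem _ hl)).symm))⟩

theorem sec (h : PMin p T M ⊤) (hU : IsElementaryAbelian p U) [U.Normal] [Z.Normal] (hZ : Z ≤ U)
    (hQ : ⁅𝔔, U⁆ ≤ Z) (hK : ¬ ⁅𝔎, U⁆ ≤ Z) (hA : IsElementaryAbelian p A) (hT : A ≤ T)
    (h0 : ¬ A ≤ 𝔔) (ho : (relCent A Z).relIndex U ≤ (𝔔).relIndex A) :
    (𝔔).relIndex A ≤ (relCent A Z).relIndex U ∧
      ∀ D, A ≤ D → D ≤ M → M ≤ 𝐍(D) → T ⊓ 𝔎 ≤ T ⊓ D ⊔ 𝔔 := by
  obtain ⟨Γ, W, _, _, _, s, hf, hs⟩ := exists_sec hU.1 hZ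
  have := s.finite
  have := Finite.of_surjective _ hs
  have k0 : s.pre ⊥ = s.top.ker := s.pre_top ⊥
  have k1 : s.top.ker ≤ M := (h.res_le_or_le le_top le_normalizer_of_normal).resolve_left fun e =>
    hK ((commutator_mono (e.trans k0.ge) le_rfl).trans s.comm_K)
  have k2 : T ⊓ s.top.ker = 𝔔 := le_antisymm (inf_comm T _ ▸ h.inf_le_core k1 le_normalizer_of_normal)
    (le_inf (core_le_of_not_dvd h.syl) (k0 ▸ s.le_K hf le_top hQ))
  have k3 : Nat.card (A.map s.top) = (𝔔).relIndex A := by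
    rw [← relIndex_ker, ← k2, ← inf_relIndex_left A, ← inf_relIndex_left A (T ⊓ _), ← inf_assoc, inf_eq_left.2 hT]
  have k4 : (cv W (A.map s.top)).index = (relCent A Z).relIndex U := by
    rw [← s.relIndex_sub, ← s.im_top, ← inf_relIndex_left U (relCent A Z)]
    congr 1
    ext v
    rw [Sec.mem_sub_cv _ le_top, mem_inf, mem_relCent, and_iff_right (le_normalizer_of_normal (mem_top v))]
    exact and_congr_right' (forall₂_congr fun x _ => by rw [← commutatorElement_inv, inv_mem_iff])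
  have k5 : A.map s.top ≠ ⊥ := fun e => h0 (k2 ▸ le_inf hT ((Subgroup.map_eq_bot_iff _).1 e))
  have e : (M.map s.top).comap s.top = M := comap_map_eq_self k1
  have hz : ∀ w : W, p • w = 0 := fun w => by
    obtain ⟨v, hv, rfl⟩ := s.surj w
    rw [← s.psi_pow hv, hU.2 v hv, s.psi_one]
  have hsy : SylIn p T ⊤ := ⟨le_top, h.pgroup, h.syl⟩
  have hS : SylIn p (T.map s.top) ⊤ := ⟨le_top, h.pgroup.map _, map_top_of_surjective _ hs ▸
    not_dvd_relIndex_map _ h.syl⟩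
  have hne : M.map s.top ≠ ⊤ := fun e' => h.lt.ne (by rw [← e, e', comap_top])
  have hmx : ∀ K, T.map s.top ≤ K → K ≤ M.map s.top ∨ K = ⊤ := fun K hK => by
    rw [← map_comap_eq_self_of_surjective hs K]
    refine (em (K.comap s.top = ⊤)).symm.imp (fun e => map_mono
      (h.uniq _ (map_le_iff_le_comap.1 hK) (lt_top_iff_ne_top.2 e))) fun e => ?_
    rw [e, map_top_of_surjective _ hs]
  have hO : pCore p Γ = ⊥ := eq_bot_iff.2 fun x hx => by
    have h3 : pCore p Γ ≤ T.map s.top := Core.pCoreOf_top.ge.trans (core_le_of_not_dvd hS.2.2)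
    obtain ⟨t, ht, rfl⟩ := h3 hx
    exact (k2.ge (h.inf_le_core (N := (pCore p _).comap s.top)
      ((comap_mono (h3.trans (map_mono h.le))).trans e.le) le_normalizer_of_normal ⟨hx, ht⟩)).2
  have hE := elab_map hA s.top
  rw [← k3, ← k4] at ho ⊢
  obtain ⟨g, w, hw, hg⟩ := exists_not_fixed hf hz hS (map_mono h.le) hne hmx hO k5 hE ho
  have hy : Hyp W p (T.map s.top) (M.map s.top) := ⟨hf, hz, hS, map_mono h.le, hne, hmx, hO,
    (hmx _ (le_fixer.2 le_rfl)).resolve_right fun e => hg (mem_fixer.1 (e.ge (mem_top g)) w hw)⟩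
  refine ⟨hy.ctx.nov _ hE, fun D d1 d2 d3 => ?_⟩
  obtain ⟨B, b1, b2, -⟩ := exists_minOff k5 hE ho
  have := hy.inf_res_le b2 (b1.trans (map_mono hT)) (b1.trans (map_mono d1)) (map_norm _ d3)
  rw [← map_top_of_surjective _ hs, ← map_res] at this
  rw [← k2]
  refine (le_inf inf_le_left ?_).trans
    (SylIn.inf_sup_le (hsy.of_le h.le le_top) d2 k1 d3 le_normalizer_of_normal)
  rw [← comap_map_eq, ← map_le_iff_le_comap]
  exact (map_inf_le _ _ _).trans this

/-- No over-offenders on noncentral sections. -/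
theorem nov (h : PMin p T M ⊤) (hU : IsElementaryAbelian p U) [U.Normal] [Z.Normal] (hZ : Z ≤ U)
    (hK : ¬ ⁅U, 𝔎⁆ ≤ Z) (hA : IsElementaryAbelian p A) (hT : A ≤ T) (h0 : ¬ A ≤ 𝔔) :
    (𝔔).relIndex A ≤ (relCent A Z).relIndex U := by
  have nQ : (𝔔).Normal := Core.pCoreOf_normal p ⊤
  have nK : (𝔎).Normal := normalizer_eq_top_iff.1 (top_le_iff.1 (le_normalizer_res p ⊤))
  obtain ⟨Y, ⟨b1, b2, b3, b4⟩, hm⟩ := (Set.toFinite {Y | Z ≤ Y ∧ Y ≤ U ∧ Y.Normal ∧
    ¬ ⁅U, 𝔎⁆ ≤ Y}).exists_maximal ⟨Z, le_rfl, hZ, inferInstance, hK⟩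
  obtain ⟨X, x1, x2, x3⟩ := exists_comm_le_of_lt (elab_pgroup hU) (core_pgroup p ⊤) ⟨b2, le_normalizer_of_normal⟩
    (fun e => b4 ((comm_le_left le_normalizer_of_normal).trans e)) le_normalizer_of_normal le_normalizer_of_normal
  have n1 : (U ⊓ relCent (𝔔) Y).Normal := normalizer_eq_top_iff.1 (top_le_iff.1 (norm_inf
    le_normalizer_of_normal (le_normalizer_relCent le_normalizer_of_normal le_normalizer_of_normal)))
  have a1 : X ≤ U ⊓ relCent (𝔔) Y := le_inf x2 (le_relCent.2 ⟨le_normalizer_of_normal, x3⟩)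
  have a2 : ⁅U, 𝔎⁆ ≤ U ⊓ relCent (𝔔) Y := by_contra fun e =>
    x1.not_ge (a1.trans (hm ⟨b1.trans (x1.le.trans a1), inf_le_left, n1, e⟩ (x1.le.trans a1)))
  have a3 : (relCent A Y).relIndex (U ⊓ relCent (𝔔) Y) ≤ (relCent A Z).relIndex U :=
    (relIndex_le_of_le_left (le_relCent.2 ⟨le_normalizer_of_normal, (commutator_relCent_le A Z).trans b1⟩)
      index_ne_zero_of_finite).trans (relIndex_le_of_le_right inf_le_left index_ne_zero_of_finite)
  refine le_trans (not_lt.1 fun e => e.not_ge (sec h (elab_of_le hU inf_le_left) (x1.le.trans a1) ?_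
    (fun e' => b4 ?_) hA hT h0 e.le).1) a3
  · rw [commutator_comm]; exact (commutator_mono inf_le_right le_rfl).trans (commutator_relCent_le _ _)
  · rw [← commutator_res_res (elab_pgroup hU) le_normalizer_of_normal, commutator_comm]
    exact (commutator_mono le_rfl a2).trans e'

end Cfsg.Lib.QRC
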