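import Cfsg.Agent.Lib.QRC.C

/-!
# The `qrc`-lemma: the case `V ≤ O₂(H)`
-/

set_option autoImplicit false

namespace Cfsg.Lib.QRC

open Subgroup Cfsg.Lib.BG Cfsg.Lib.Transfer Cfsg.Lib.Loc Cfsg.Lib.PLocal Cfsg.Lib.GC
open scoped commutatorElement

variable {G : Type*} [Group G] [Finite G] {A B C M N T V : Subgroup G} {g : G}

local notation "𝔔" => pCoreOf 2 (⊤ : Subgroup G)
local notation "𝔎" => pResidualOf 2 (⊤ : Subgroup G)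
local notation "𝔘" => ncl V (⊤ : Subgroup G)

omit [Finite G] in
theorem nml (h : ⊤ ≤ 𝐍(N)) : N.Normal := normalizer_eq_top_iff.1 (top_le_iff.1 h)

omit [Finite G] in
instance nclNormal : (𝔘).Normal := nml (norm_ncl _ _)

instance coreNormal : (𝔔).Normal := Core.pCoreOf_normal 2 ⊤

instance resNormal : (𝔎).Normal := nml (le_normalizer_res 2 ⊤)

/-- The situation of the `qrc`-lemma when `V ≤ O₂(H)` has no quadratic `2F`-offender. -/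
structure Qb (T M V : Subgroup G) : Prop where
  syl : SylIn 2 T ⊤
  le : T ≤ M
  lt : M < ⊤
  uniq : ∀ K, T ≤ K → K < ⊤ → K ≤ M
  el : IsElementaryAbelian 2 V
  leQ : V ≤ 𝔔
  nV : T ≤ 𝐍(V)
  nq : ∀ B ≤ T, ⁅⁅V, B⁆, B⁆ = ⊥ → ¬ Off B V
  nn : ¬ V.Normal
  nJ : ¬ (thompsonSubgroupOf 2 (T ⊓ 𝐂(V))).Normal

namespace Qb

variable (h : Qb T M V)
include h

theorem Q_le : 𝔔 ≤ T := core_le_of_not_dvd h.syl.2.2

theorem U_le : 𝔘 ≤ 𝔔 := ncl_le h.leQ le_normalizer_of_normal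

theorem nml' (h1 : 𝔎 ≤ 𝐍(N)) (h2 : T ≤ 𝐍(N)) : N.Normal :=
  nml ((res_sup_sylowIn le_top h.syl.2.2).ge.trans (sup_le h1 h2))

theorem elU : IsElementaryAbelian 2 𝔘 := elemAb_ncl h.el fun g _ => by_contra fun e => by
  have a : ∀ x : G, x ⋆ V ≤ T := fun x => ((conj_le_ncl _ (mem_top x)).trans h.U_le).trans h.Q_le
  obtain ⟨x, -, b1, -, b3⟩ := sym_off (abelian_cent h.el.1) ((a g).trans h.nV) (h.leQ.trans (by
    rw [← conj_normalizer, ← conj_eq_self_of_normal (H := 𝔔) g]; exact conj_mono g (h.Q_le.trans h.nV))) e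
  exact h.nq _ (a x) b1 b3

theorem not_off (hB : B ≤ 𝔔) (hq : ⁅⁅𝔘, B⁆, B⁆ = ⊥) : ¬ Off B 𝔘 := fun e => by
  obtain ⟨g, C, c1, c2⟩ := e.desc
  refine h.nq (g⁻¹ ⋆ C) ((conj_le_of_norm (c1.trans hB) (le_normalizer_of_normal (mem_top _))).trans h.Q_le) ?_
    (by simpa only [inv_conj_conj] using c2.conj g⁻¹)
  rw [← inv_conj_conj g V, ← conj_commutator, ← conj_commutator, conj_eq_bot_iff]
  exact eq_bot_iff.2 (hq ▸ commutator_mono (commutator_mono (conj_le_ncl _ (mem_top g)) c1) c1)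

theorem max_le (hA : A ∈ maxIn 2 T) : A ≤ 𝐂(V) := by_contra fun e => by
  have a := h.leQ.trans h.Q_le
  obtain ⟨B, b1, -, b2, b3⟩ := exists_quadratic_mem_maxIn h.syl.2.1 hA a h.el (hA.1.trans h.nV) e
  exact h.nq B b1.1 b2 ⟨b3, (relIndex_le_of_offMeasure_max h.el.1 le_rfl fun _ =>
    offMeasure_le_of_mem_maxIn b1 a h.el).trans (Nat.le_self_pow two_ne_zero _)⟩

theorem nJ' : ¬ (thompsonSubgroupOf 2 T).Normal := fun e => h.nJ (thompsonSubgroupOf_eq_of_le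
  (le_inf (thompsonSubgroupOf_le T) (thompsonSubgroupOf_le_iff.2 fun _ => h.max_le)) inf_le_left ▸ e)

theorem pm : PMin 2 T M ⊤ :=
  ⟨h.syl.2.1, h.syl.2.2, h.le, h.lt, h.uniq, fun e => h.nJ' (have := nml e; inferInstance)⟩

theorem nK : ¬ 𝔎 ≤ 𝐂(𝔘) := fun e => h.nn (h.nml' (norm_of_cent (e.trans (cent_anti (le_ncl _ _)))) h.nV)

theorem inf_le : T ⊓ 𝐂(𝔘) ≤ 𝔔 := inf_comm T _ ▸ h.pm.inf_le_core
  ((h.pm.res_le_or_le le_top le_normalizer_of_normal).resolve_left h.nK) le_normalizer_of_normal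

theorem exists_max : ∃ A ∈ maxIn 2 T, ⁅⁅𝔘, A⁆, A⁆ = ⊥ ∧ ¬ A ≤ 𝔔 ∧ 𝐂(A).relIndex 𝔘 ≤
    𝐂(𝔘).relIndex (𝔔 ⊓ A) * (𝔔).relIndex A := by
  have a := h.U_le.trans h.Q_le
  obtain ⟨A, hA, e⟩ : ∃ A ∈ maxIn 2 T, ¬ A ≤ 𝐂(𝔘) := by
    by_contra! e
    exact h.nJ' (thompsonSubgroupOf_eq_of_le ((le_inf (thompsonSubgroupOf_le T)
      (thompsonSubgroupOf_le_iff.2 e)).trans h.inf_le) h.Q_le ▸ inferInstance)
  obtain ⟨B, b1, -, b2, b3⟩ := exists_quadratic_mem_maxIn h.syl.2.1 hA a h.elU le_normalizer_of_normal e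
  refine ⟨B, b1, b2, fun e => b3 (cent_symm (ncl_le_iff.2 fun g _ => cent_symm ?_)), ?_⟩
  · rw [← conj_centralizer, le_conj_iff_inv_conj_le]
    exact h.max_le (conj_mem_maxIn_of_le b1
      ((conj_le_of_norm e (le_normalizer_of_normal (mem_top _))).trans h.Q_le))
  · rw [relIndex_inf_mul_relIndex, ← inf_relIndex_left B, inf_comm _ 𝔔, ← inf_assoc, inf_right_comm,
      inf_eq_left.2 ((inf_le_inf_right _ b1.1).trans h.inf_le), inf_relIndex_left]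
    exact relIndex_le_of_offMeasure_max h.elU.1 le_rfl fun _ => offMeasure_le_of_mem_maxIn b1 a h.elU

/-- There is only one noncentral chief factor in `U`. -/
theorem one [N.Normal] (hN : N ≤ 𝔘) : N ≤ 𝐂(𝔎) ∨ ⁅𝔘, 𝔎⁆ ≤ N := by
  by_contra! e
  obtain ⟨A, hA, a1, a2, a3⟩ := h.exists_max
  have b1 := nov h.pm (elab_of_le h.elU hN) bot_le (fun e' => e.1 (comm_eq_bot_iff.1 (eq_bot_iff.2 e'))) hA.2.1 hA.1 a2
  have b2 := nov h.pm h.elU hN e.2 hA.2.1 hA.1 a2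
  have b3 := relIndex_inf_mul_relIndex 𝐂(A) (relCent A N) 𝔘
  rw [inf_eq_left.2 (le_relCent.2 ⟨le_normalizer_of_normal, (comm_eq_bot_iff.2 le_rfl).le.trans bot_le⟩)] at b3
  rw [relCent_bot] at b1
  replace b1 := b1.trans (relIndex_le_of_le_right (le_inf (le_relCent.2 ⟨le_normalizer_of_normal,
    comm_le_left le_normalizer_of_normal⟩ : N ≤ relCent A N) hN) index_ne_zero_of_finite)
  have b4 := two_le_relIndex a2
  have b5 := Nat.le_of_mul_le_mul_right ((Nat.mul_le_mul b1 b2).trans (b3.le.trans a3)) (by omega)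
  refine h.not_off (inf_le_left (b := A)) (eq_bot_iff.2 (a1 ▸ commutator_mono (commutator_mono le_rfl inf_le_right)
    inf_le_right)) ⟨fun e => by rw [relIndex_eq_one.2 e] at b5; omega, ?_⟩
  exact (relIndex_le_of_le_left (cent_anti inf_le_right) index_ne_zero_of_finite).trans
    (a3.trans (sq (_ : ℕ) ▸ Nat.mul_le_mul_left _ b5))

theorem comm_le : ⁅𝔘, 𝔔⁆ ≤ 𝐂(𝔎) := (h.one (comm_le_left le_normalizer_of_normal)).resolve_right fun e => by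
  have := h.nml' (N := V ⊔ ⁅𝔘, 𝔔⁆) (norm_of_comm_le ((commutator_mono (sup_le (le_ncl _ _)
    (comm_le_left le_normalizer_of_normal)) le_rfl).trans (e.trans le_sup_right)))
      (norm_sup h.nV le_normalizer_of_normal)
  have a1 : 𝔘 ≤ V ⊔ ⁅𝔘, 𝔔⁆ := ncl_le le_sup_left le_normalizer_of_normal
  obtain ⟨Z, ⟨b1, b2, b3⟩, hm⟩ := (Set.toFinite {Z | V ≤ Z ∧ Z < 𝔘 ∧ 𝔔 ≤ 𝐍(Z)}).exists_maximal
    ⟨V, le_rfl, lt_of_le_of_ne (le_ncl _ _) fun e => h.nn (e ▸ inferInstance), h.Q_le.trans h.nV⟩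
  obtain ⟨X, x1, x2, x3⟩ := exists_comm_le_of_lt (elab_pgroup h.elU) (core_pgroup 2 ⊤)
    ⟨b2.le, h.U_le.trans b3⟩ b2.not_ge le_normalizer_of_normal b3
  rw [x2.eq_or_lt.resolve_right fun e => x1.not_ge (hm ⟨b1.trans x1.le, e,
    norm_of_comm_le (x3.trans x1.le)⟩ x1.le)] at x3
  exact b2.not_ge (a1.trans (sup_le b1 x3))

theorem comm_cent : ⁅𝔔, 𝔎⁆ ≤ 𝐂(𝔘) := by_contra fun e => by
  have a0 : ⁅𝔔, 𝔎⁆ ≤ 𝔔 := comm_le_left le_normalizer_of_normal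
  have a1 : ⁅𝔘, ⁅𝔔, 𝔎⁆⁆ ≤ 𝔘 ⊓ 𝐂(𝔎) :=
    le_inf (comm_le_left le_normalizer_of_normal) ((commutator_mono le_rfl a0).trans h.comm_le)
  have a2 : ⁅𝔔, 𝔎⁆ ≤ 𝐂(𝔘 ⊓ 𝐂(𝔎)) := comm_eq_bot_iff.1 (commutator_commutator_eq_bot_of_rotate
    (by rw [comm_eq_bot_iff.2 (cent_symm inf_le_right), commutator_bot_left])
    (comm_eq_bot_iff.2 ((commutator_mono inf_le_left le_rfl).trans h.comm_le)))
  obtain ⟨Z, z1, z2, z3⟩ := exists_hyp (elab_of_le h.elU (a1.trans inf_le_left)) h.syl.2.1 le_normalizer_of_normal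
    fun e' => e (cent_symm (comm_eq_bot_iff.1 e'))
  have := h.nml' (norm_of_cent (cent_symm (z1.le.trans (a1.trans inf_le_right)))) z2
  have := nml (norm_inf (le_normalizer_of_normal (H := 𝔘))
    (le_normalizer_relCent (L := ⁅𝔔, 𝔎⁆) (N := Z) le_normalizer_of_normal le_normalizer_of_normal))
  have a3 := (h.one (inf_le_left (b := relCent ⁅𝔔, 𝔎⁆ Z))).resolve_right fun e' => z1.not_ge (by
    rw [← commutator_res_res (core_pgroup 2 ⊤) le_normalizer_of_normal, commutator_comm]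
    refine Core.three_subgroups_normal Z ?_ (((comm_eq_bot_iff.2 (a1.trans inf_le_right)).le).trans bot_le)
    rw [commutator_comm 𝔎 𝔘]
    exact (commutator_mono (e'.trans inf_le_right) le_rfl).trans (commutator_relCent_le _ _))
  refine h.nq _ (a0.trans h.Q_le) (comm_eq_bot_iff.2 (((commutator_mono (le_ncl _ _) le_rfl).trans a1).trans
    (cent_symm a2))) ⟨fun e' => e (cent_symm (ncl_le (cent_symm e') le_normalizer_of_normal)), ?_⟩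
  refine le_trans ?_ ((pair (X := ⁅𝔔, 𝔎⁆) (V := V) z3.le (by
    rw [commutator_comm]; exact commutator_mono (le_ncl _ _) le_rfl)).trans (Nat.le_self_pow two_ne_zero _))
  rw [← inf_relIndex_left V (relCent _ _)]
  exact relIndex_le_of_le_left ((inf_le_inf_right _ (le_ncl V ⊤)).trans ((le_inf inf_le_left a3).trans
    (cent_symm a2))) index_ne_zero_of_finite

theorem main (h3 : M ≤ 𝐍(C)) (h4 : T ⊓ C = T ⊓ 𝐂(V)) : T ⊓ 𝔎 ≤ 𝐂(V) := by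
  obtain ⟨A, hA, -, a2, a3⟩ := h.exists_max
  have b0 : 𝐂(𝔘) ≤ 𝐂(V) := cent_anti (le_ncl _ _)
  have := h.nml' (N := 𝔔 ⊓ 𝐂(V)) (norm_of_comm_le ((commutator_mono inf_le_left
    le_rfl).trans (le_inf (comm_le_left le_normalizer_of_normal) (h.comm_cent.trans b0))))
      (norm_inf le_normalizer_of_normal (norm_cent h.nV))
  have b1 : 𝔔 ⊓ 𝐂(V) ≤ 𝐂(𝔘) := cent_symm (ncl_le (cent_symm inf_le_right) le_normalizer_of_normal)
  rw [relIndex_eq_one.2 ((inf_le_inf_left 𝔔 (h.max_le hA)).trans b1), one_mul] at a3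
  have b3 : ⁅𝔔, 𝔘⁆ ≤ 𝔘 ⊓ 𝐂(𝔎) := le_inf (comm_le_right le_normalizer_of_normal) ((commutator_comm _ _).le.trans h.comm_le)
  have b4 : ∀ X, ⁅X, 𝔎⁆ ≤ 𝔘 ⊓ 𝐂(𝔎) → X ≤ 𝐂(𝔎) := fun X e => cent_symm (res_le_centralizer_of_commutator
    (elab_pgroup h.elU).to_inf_left e (cent_symm inf_le_right))
  have b8 : ⁅𝔘, 𝔎⁆ ≤ 𝐂(𝔔) := comm_eq_bot_iff.1 (commutator_commutator_eq_bot_of_rotate
    (comm_eq_bot_iff.2 ((commutator_comm _ _).le.trans h.comm_cent)) (comm_eq_bot_iff.2 (b3.trans inf_le_right)))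
  have b9 : 𝔎 ≤ 𝐂(𝔘 ⊓ 𝐂(𝔎)) := cent_symm inf_le_right
  have d1 : 𝔘 ⊓ 𝐂(𝔎) ≤ 𝔘 := inf_le_left
  have d2 : ∀ X ≤ 𝔘, ⁅X, 𝔎⁆ ≤ 𝔘 ⊓ 𝐂(𝔎) → X ≤ 𝔘 ⊓ 𝐂(𝔎) := fun X a b => le_inf a (b4 X b)
  have d3 : ¬ ⁅𝔎, 𝔘⁆ ≤ 𝔘 ⊓ 𝐂(𝔎) := fun e => h.nK (cent_symm (b4 _ ((commutator_comm _ _).le.trans e)))
  have d4 : (𝔘 ⊓ 𝐂(𝔎)).Normal := inferInstance
  generalize 𝔘 ⊓ 𝐂(𝔎) = Z at b3 b9 d1 d2 d3 d4
  have b2 : ∀ X : Subgroup G, 𝐂(X) ≤ relCent X Z := fun X =>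
    le_relCent.2 ⟨le_normalizer_of_normal, (comm_eq_bot_iff.2 le_rfl).le.trans bot_le⟩
  obtain ⟨c1, c2⟩ := sec h.pm h.elU d1 b3 d3 hA.2.1 hA.1 a2
    ((relIndex_le_of_le_left (b2 A) index_ne_zero_of_finite).trans a3)
  have b5 : Z ≤ 𝐂(A) := by
    have := relIndex_inf_mul_relIndex 𝐂(A) (relCent A Z) 𝔘
    rw [inf_eq_left.2 (b2 A)] at this
    refine le_trans (le_inf (le_relCent.2 ⟨le_normalizer_of_normal, comm_le_left le_normalizer_of_normal⟩ :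
      Z ≤ relCent A Z) d1) (by_contra fun e => ?_)
    have := (Nat.mul_le_mul (two_le_relIndex e) c1).trans (this.le.trans a3)
    have := two_le_relIndex a2
    omega
  have b6 : T ⊓ 𝔎 ≤ 𝐂(V) ⊓ 𝐂(Z) ⊔ 𝔔 := (c2 (M ⊓ (C ⊓ 𝐂(Z))) (le_inf (hA.1.trans h.le) (le_inf
    ((h4 ▸ le_inf hA.1 (h.max_le hA) : A ≤ T ⊓ C).trans inf_le_right) (cent_symm b5))) inf_le_left
      (norm_inf (le_norm M) (norm_inf h3 le_normalizer_of_normal))).trans (sup_le_sup_right (le_inf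
        ((inf_le_inf_left T (inf_le_right.trans inf_le_left)).trans (h4.le.trans inf_le_right))
          (inf_le_right.trans (inf_le_right.trans inf_le_right))) _)
  have d5 : T ⊓ 𝔎 ≤ relCent V Z := b6.trans (sup_le (inf_le_left.trans (b2 V))
    (le_relCent.2 ⟨le_normalizer_of_normal, (commutator_mono le_rfl (le_ncl _ _)).trans b3⟩))
  have b7 : V ≤ Z ⊔ ⁅𝔘, 𝔎⁆ := (avg h.elU le_normalizer_of_normal
    (CGT.SylIn.inf_norm h.syl le_top le_normalizer_of_normal).2.2 (le_ncl _ _)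
      ((commutator_comm _ _).le.trans (le_relCent.1 d5).2)).trans (sup_le (sup_le_sup_right (d2 _ inf_le_left
        ((commutator_mono inf_le_right le_rfl).trans (commutator_relCent_le _ _))) _) le_sup_left)
  intro t ht
  obtain ⟨r, hr, q, hq, rfl⟩ := (mem_sup_right_norm le_normalizer_of_normal).1 (b6 ht)
  exact mul_mem hr.1 (cent_anti b7 ((cent_sup _ _).ge ⟨(mul_mem_cancel_left (H := 𝐂(Z)) hr.2).1 (b9 ht.2), cent_symm b8 hq⟩))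

end Qb

/-- The `qrc`-lemma inside `H`. -/
theorem qrc (hc : IsChP 2 (⊤ : Subgroup G)) (hT : SylIn 2 T ⊤) (hu : ∀ K, T ≤ K → K < ⊤ → K ≤ M) (hM : T ≤ M)
    (hM' : M < ⊤) (hV : IsElementaryAbelian 2 V) (h1 : V ≤ T) (h2 : T ≤ 𝐍(V)) (h3 : M ≤ 𝐍(C))
    (h4 : T ⊓ C = T ⊓ 𝐂(V)) (h5 : ¬ V.Normal) (h6 : ¬ (thompsonSubgroupOf 2 (T ⊓ 𝐂(V))).Normal) :
    (¬ V ≤ 𝔔 ∧ ∃ B ≤ T, IsElementaryAbelian 2 B ∧ ⁅⁅⁅V, B⁆, B⁆, B⁆ = ⊥ ∧ Off B V) ∨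
      (∃ B ≤ T, ⁅⁅V, B⁆, B⁆ = ⊥ ∧ Off B V) ∨ T ⊓ 𝔎 ≤ 𝐂(V) := by
  by_cases e : V ≤ 𝔔
  · refine .inr (or_iff_not_imp_left.2 fun e' => Qb.main ⟨hT, hM, hM', hu, hV, e, h2, ?_, h5, h6⟩ h3 h4)
    exact fun B a b c => e' ⟨B, a, b, c⟩
  · exact .inl ⟨e, cubV hc hT hu hM hV h1 h2 h3 h4 e⟩

end Cfsg.Lib.QRC
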